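import Cfsg.Agent.H45.OnDefs

/-! Project ON, piece OC: counting the points not linked with a component. -/

set_option autoImplicit false

namespace Cfsg.Agent.H39.OnOc

open Cfsg.Agent.H45.On

universe u v

theorem dc {α β : Type*} [Finite α] [Finite β] (A : Set α) (B : Set β) (R : α → β → Prop)
    (m n : ℕ) (hm : ∀ a ∈ A, {b | b ∈ B ∧ R a b}.ncard = m)
    (hn : ∀ b ∈ B, {a | a ∈ A ∧ R a b}.ncard = n) : A.ncard * m = B.ncard * n := by
  classical
  have := Fintype.ofFinite α
  have := Fintype.ofFinite β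
  rw [Set.ncard_eq_toFinset_card' A, Set.ncard_eq_toFinset_card' B]
  refine Finset.card_mul_eq_card_mul R (fun a ha => ?_) fun b hb => ?_
  · rw [← hm a (by simpa using ha), Set.ncard_eq_toFinset_card']
    congr 1
    ext b
    simp [Finset.mem_bipartiteAbove]
  · rw [← hn b (by simpa using hb), Set.ncard_eq_toFinset_card']
    congr 1
    ext a
    simp [Finset.mem_bipartiteBelow]

theorem oc : OcStmt.{u, v} := by
  intro G Ω _ _ _ _ S L K z w M hzw hM
  have : Finite (Subgroup G) := Finite.of_injective _ SetLike.coe_injective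
  have h := dc {M' | L.Cp z M'} {v | v ≠ z} (fun M' v => ¬ L.Lk M' v)
    {v | v ≠ z ∧ ¬ L.Lk M v}.ncard (L.kk z - L.mu z w) ?_ ?_
  · have e : {v : Ω | v ≠ z}.ncard = Nat.card Ω - 1 := by
      have : {v : Ω | v ≠ z} = {z}ᶜ := by ext v; simp
      rw [this, Set.ncard_compl, Set.ncard_singleton]
    rw [e, mul_comm (Nat.card Ω - 1)] at h
    exact h
  · intro M' hM'
    obtain ⟨g, hg, rfl⟩ := K.tr hM hM'
    have hg' : g⁻¹ • z = z := by rw [inv_smul_eq_iff, hg]
    rw [← Set.ncard_image_of_injective {v | v ≠ z ∧ ¬ L.Lk M v} (MulAction.injective g)]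
    congr 1
    ext v
    simp only [Set.mem_ofPred_eq, Set.mem_image]
    constructor
    · rintro ⟨h1, h2⟩
      refine ⟨g⁻¹ • v, ⟨fun e => h1 ?_, fun e => h2 ?_⟩, smul_inv_smul g v⟩
      · rw [← smul_inv_smul g v, e, hg]
      · simpa using K.lk g e
    · rintro ⟨v', ⟨h1, h2⟩, rfl⟩
      refine ⟨fun e => h1 ?_, fun e => h2 ?_⟩
      · rw [← inv_smul_smul g v', e, hg']
      · have := K.lk g⁻¹ e
        rwa [cj_inv_cj, inv_smul_smul] at this
  · intro v hv
    rw [K.mu_eq hzw (Ne.symm hv), S0.Li.kk, S0.Li.mu,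
      ← Set.ncard_sdiff (fun _ h => h.1) (Set.toFinite _)]
    congr 1
    ext M'
    simp only [Set.mem_ofPred_eq, Set.mem_sdiff]
    tauto

end Cfsg.Agent.H39.OnOc
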