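import Cfsg.Agent.H39.ReeThm
import Cfsg.Agent.H39.ReeRep
import Cfsg.Agent.H39.SzSchur

/-!
Small Ree groups: the Schur multiplier is trivial.
-/

set_option autoImplicit false

namespace Cfsg.Agent.H39

open scoped commutatorElement
open H80

theorem cm_one_right {Γ G : Type*} [Group Γ] [Group G] {σ : Γ →* G} (hσ : IsCentralExt σ) (g : G) :
    cm hσ g 1 = 1 := by rw [cm_symm, cm_one_left, inv_one]

theorem cm_self {Γ G : Type*} [Group Γ] [Group G] {σ : Γ →* G} (hσ : IsCentralExt σ) (g : G) :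
    cm hσ g g = 1 := commutatorElement_self _

namespace Ree

variable {G : Type*} [Group G] {F : Type*} [Field F] (S : Ree G F) [ReeField F]
  {Γ : Type*} [Group Γ] {σ : Γ →* G} (hσ : IsCentralExt σ)

theorem exists_inv_ne (S : Ree G F) : ∃ x x' : F, (x + x')⁻¹ ≠ x⁻¹ + x'⁻¹ := by
  have := S.charP
  obtain ⟨t, h0, h1, h2⟩ := ReeField.exists_ne F
  refine ⟨t, 1, fun h => h1 ?_⟩
  have h3 : t + 1 ≠ 0 := fun e => h2 (eq_neg_of_add_eq_zero_left e)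
  have h4 : (t - 1) ^ 2 = 0 := by
    field_simp at h
    grind
  exact sub_eq_zero.mp ((pow_eq_zero_iff two_ne_zero).mp h4)

theorem exists_s_div_ne : ∃ x x' : F, S.s (x + x') / (x + x') ^ 2 ≠ S.s x / x ^ 2 + S.s x' / x' ^ 2 := by
  have := S.charP
  obtain ⟨t, h0, h1, h2⟩ := ReeField.exists_ne F
  refine ⟨t, 1, fun h => ?_⟩
  have h3 : t + 1 ≠ 0 := fun e => h2 (eq_neg_of_add_eq_zero_left e)
  rw [map_add, map_one] at h
  field_simp at h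
  have h4 : (S.s t - t ^ 3) * (t - 1) = 0 := by grind
  have h5 := sub_eq_zero.mp ((mul_eq_zero.mp h4).resolve_right (sub_ne_zero.mpr h1))
  have h6 := S.ss t
  rw [h5, map_pow, h5] at h6
  have h7 : t ^ 3 * ((t - 1) * (t + 1)) ^ 3 = 0 := by grind
  simp [h0, h3, sub_ne_zero.mpr h1] at h7

omit [ReeField F] in
theorem u_zero_comm (b c b' c' : F) : S.u 0 b c * S.u 0 b' c' = S.u 0 b' c' * S.u 0 b c :=
  S.Y_comm (S.u_mem_Y b c) (S.u_mem_Y b' c')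

omit [ReeField F] in
theorem u_center_comm (a b c c' : F) : S.u 0 0 c' * S.u a b c = S.u a b c * S.u 0 0 c' := by
  simp [u_comm_iff]

omit [ReeField F] in
theorem u_eq_mul (a b c : F) : S.u a b c = S.u a 0 0 * S.u 0 b c := by simp [S.u_mul]

omit [ReeField F] in
theorem cm_Y_add_left (b c b' c' b'' c'' : F) : cm hσ (S.u 0 (b + b') (c + c')) (S.u 0 b'' c'') =
    cm hσ (S.u 0 b c) (S.u 0 b'' c'') * cm hσ (S.u 0 b' c') (S.u 0 b'' c'') := by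
  rw [add_comm b, add_comm c, ← u_zero_mul, cm_mul_left' hσ (cm_comm hσ (S.u_zero_comm ..) _)]

omit [ReeField F] in
theorem cm_Y_add_right (b c b' c' b'' c'' : F) : cm hσ (S.u 0 b'' c'') (S.u 0 (b + b') (c + c')) =
    cm hσ (S.u 0 b'' c'') (S.u 0 b c) * cm hσ (S.u 0 b'' c'') (S.u 0 b' c') := by
  rw [← u_zero_mul, cm_mul_right' hσ (cm_comm hσ (S.u_zero_comm ..) _)]

theorem cm_Z_Z (c d : F) : cm hσ (S.u 0 0 c) (S.u 0 0 d) = 1 := by
  refine biadd_eq_one (fun c d => cm hσ (S.u 0 0 c) (S.u 0 0 d)) (·⁻¹) (fun x x' y => ?_)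
    (fun y y' => ?_) (fun x y => ?_) S.exists_inv_ne c d
  · rw [← S.cm_Y_add_left hσ, add_zero]
  · rw [← S.cm_Y_add_right hσ, add_zero]
  · by_cases hx : x = 0
    · rw [hx, inv_zero, zero_mul, S.u_zero, cm_one_left, cm_one_right]
    obtain ⟨k, hk⟩ := S.exists_unit_sq_mul_s (inv_ne_zero hx)
    rw [← cm_conj_of_comm hσ (S.u_zero_comm ..) (S.h k), S.h_conj_u, S.h_conj_u, hk, mul_zero,
      mul_zero, inv_mul_cancel₀ hx]

theorem cm_X_X (c d : F) : cm hσ (S.u 0 c 0) (S.u 0 d 0) = 1 := by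
  have h1 : ∀ x x' y, cm hσ (S.u 0 (x + x') 0) (S.u 0 y 0) =
      cm hσ (S.u 0 x 0) (S.u 0 y 0) * cm hσ (S.u 0 x' 0) (S.u 0 y 0) := fun x x' y => by
    rw [← S.cm_Y_add_left hσ, add_zero]
  have h2 : ∀ x y y', cm hσ (S.u 0 x 0) (S.u 0 (y + y') 0) =
      cm hσ (S.u 0 x 0) (S.u 0 y 0) * cm hσ (S.u 0 x 0) (S.u 0 y' 0) := fun x x' y => by
    rw [← S.cm_Y_add_right hσ, add_zero]
  refine biadd_eq_one (fun c d => cm hσ (S.u 0 c 0) (S.u 0 d 0)) (·⁻¹) h1 (h2 1)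
    (fun x y => ?_) S.exists_inv_ne c d
  by_cases hx : x = 0
  · rw [hx, inv_zero, zero_mul, S.u_zero, cm_one_left, cm_one_right]
  obtain ⟨k, hk⟩ := S.exists_unit_mul_s (inv_ne_zero hx)
  rw [← cm_conj_of_comm hσ (S.u_zero_comm ..) (S.h k), S.h_conj_u, S.h_conj_u, mul_zero, mul_zero]
  rcases hk with hk | hk <;> rw [hk]
  · rw [inv_mul_cancel₀ hx]
  · have e1 := h1 (-1) 1 (-(x⁻¹ * y))
    have e2 := h2 1 (x⁻¹ * y) (-(x⁻¹ * y))
    rw [neg_add_cancel, S.u_zero, cm_one_left] at e1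
    rw [add_neg_cancel, S.u_zero, cm_one_right] at e2
    rw [neg_mul, neg_mul, inv_mul_cancel₀ hx, eq_inv_of_mul_eq_one_left e1.symm,
      eq_inv_of_mul_eq_one_left e2.symm]

omit [ReeField F] in
theorem cm_X_Z (b c : F) : cm hσ (S.u 0 b 0) (S.u 0 0 c) = 1 := by
  have := S.charP
  have e := cm_conj_of_comm hσ (S.u_zero_comm b 0 0 c) S.t
  have e' := S.cm_Y_add_right hσ 0 c 0 c b 0
  rw [t_conj_u, t_conj_u, neg_zero, show -c = c + c by grind] at e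
  rw [add_zero, e] at e'
  exact mul_eq_left.mp e'.symm

theorem cm_Y_Y (b c b' c' : F) : cm hσ (S.u 0 b c) (S.u 0 b' c') = 1 := by
  have e := S.cm_Y_add_left hσ b 0 0 c b' c'
  have e1 := S.cm_Y_add_right hσ b' 0 0 c' b 0
  have e2 := S.cm_Y_add_right hσ b' 0 0 c' 0 c
  rw [add_zero, zero_add] at e e1 e2
  rw [e, e1, e2, cm_X_X, cm_X_Z, cm_Z_Z, cm_symm, cm_X_Z]
  simp

theorem cm_Z_U (d a b c : F) : cm hσ (S.u 0 0 d) (S.u a b c) = 1 := by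
  have h1 : ∀ d a b c, cm hσ (S.u 0 0 d) (S.u a b c) = cm hσ (S.u 0 0 d) (S.u a 0 0) :=
    fun d a b c => by
      rw [S.u_eq_mul a b c, cm_mul_right' hσ (cm_comm hσ (S.u_center_comm ..) _), cm_Y_Y, mul_one]
  rw [h1]
  refine biadd_eq_one (fun d a => cm hσ (S.u 0 0 d) (S.u a 0 0)) (fun d => S.s d / d ^ 2)
    (fun x x' y => ?_) (fun y y' => ?_) (fun x y => ?_) S.exists_s_div_ne d a
  · rw [← cm_mul_left' hσ (cm_comm hσ (S.u_center_comm ..) _), u_zero_mul, add_zero, add_comm]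
  · rw [← cm_mul_right' hσ (cm_comm hσ (S.u_center_comm ..) _), S.u_mul]
    exact (h1 ..).symm
  · by_cases hx : x = 0
    · rw [hx, map_zero, zero_div, zero_mul, S.u_zero, cm_one_left, cm_one_right]
    have hs : S.s x ≠ 0 := (map_ne_zero _).mpr hx
    rw [← cm_conj_of_comm hσ (S.u_center_comm ..) (S.h (Units.mk0 (S.s x / x ^ 2) (by simp [hx]))),
      S.h_conj_u, S.h_conj_u]
    simp only [mul_zero, Units.val_mk0, map_div₀, map_pow, S.ss]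
    congr 2
    field_simp

include hσ in
theorem eq_one_of_mem_commutator_B [Finite Γ] {z : Γ} (hz : σ z = 1)
    (hz' : z ∈ ⁅S.B.comap σ, S.B.comap σ⁆) : z = 1 := by
  have := S.charP
  have := S.finite
  have hYY : ∀ x y : Γ, σ x ∈ S.Y → σ y ∈ S.Y → x * y = y * x := by
    rintro x y ⟨a, e, h1⟩ ⟨b, c, h2⟩
    rw [← commutatorElement_eq_one_iff_mul_comm, ← cm_map hσ, h1, h2, cm_Y_Y]
  have hH : ∀ x y : Γ, σ x ∈ S.H → σ y ∈ S.H → x * y = y * x := fun x y hx hy => by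
    have := S.isCyclic_H
    exact congrArg Subtype.val ((MonoidHom.isMulCommutative_of_isCyclic_of_ker_le_center
      (restrictExt σ S.H) (hσ.restrict S.H).central).is_comm.comm ⟨x, hx⟩ ⟨y, hy⟩)
  obtain ⟨k, hk, hk'⟩ := ReeField.exists_unit_ne F
  have hconj : ∀ x y, σ x ∈ S.H → x * cm hσ y (S.h k) * x⁻¹ = cm hσ (σ x * y * (σ x)⁻¹) (S.h k) :=
    fun x y hx => by rw [conj_cm, S.H_comm hx (S.h_mem_H k), mul_inv_cancel_right]
  have hδ : ∀ y, σ (cm hσ y (S.h k)) = y * (S.h k * y⁻¹ * (S.h k)⁻¹) := fun y => by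
    rw [map_cm]; group
  have hcU : ∀ y ∈ S.U, σ (cm hσ y (S.h k)) ∈ S.U := fun y hy =>
    hδ y ▸ mul_mem hy (S.conj_mem_U (S.h_mem_B k) (inv_mem hy))
  have hcY : ∀ y ∈ S.Y, σ (cm hσ y (S.h k)) ∈ S.Y := fun y hy =>
    hδ y ▸ mul_mem hy (S.conj_mem_Y (S.h_mem_B k) (inv_mem hy))
  have hfix : ∀ y ∈ S.U, σ (cm hσ y (S.h k)) = 1 → y = 1 := fun y hy e => by
    rw [map_cm, mul_inv_eq_one, mul_inv_eq_iff_eq_mul] at e
    refine S.eq_one_of_mem_U_of_mem_H hy ?_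
    rw [← S.centralizer_eq_H (S.h_mem_H k) (fun e => hk (S.h_eq_one_iff.mp e))
      fun e => hk' (S.h_inj e)]
    exact Subgroup.mem_centralizer_singleton_iff.mpr e
  have mk : ∀ M : Submonoid Γ, ∃ K : Subgroup Γ, ∀ x, x ∈ K ↔ x ∈ M := fun M =>
    ⟨{ M with
      inv_mem' := fun {a} ha => Submonoid.powers_le.mpr ha
        (mem_powers_iff_mem_zpowers.mpr (inv_mem (Subgroup.mem_zpowers a))) }, fun _ => Iff.rfl⟩
  obtain ⟨Y₀, hY₀⟩ := mk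
    { carrier := {x | ∃ y ∈ S.Y, x = cm hσ y (S.h k)}
      one_mem' := ⟨1, one_mem _, (cm_one_left hσ _).symm⟩
      mul_mem' := by
        rintro _ _ ⟨y', hy', rfl⟩ ⟨y, hy, rfl⟩
        exact ⟨y * y', mul_mem hy hy', (cm_mul_left' hσ
          (hYY _ _ (by rwa [map_lift]) (hcY _ hy'))).symm⟩ }
  replace hY₀ : ∀ x, x ∈ Y₀ ↔ ∃ y ∈ S.Y, x = cm hσ y (S.h k) := hY₀
  have hY1 : ∀ x ∈ Y₀, σ x ∈ S.Y := fun x hx => by
    obtain ⟨y, hy, rfl⟩ := (hY₀ x).mp hx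
    exact hcY y hy
  have hY2 : ∀ x ∈ Y₀, σ x = 1 → x = 1 := fun x hx e => by
    obtain ⟨y, hy, rfl⟩ := (hY₀ x).mp hx
    rw [hfix y (S.Y_le_U hy) e, cm_one_left]
  have hY3 : ∀ g, σ g ∈ S.H → ∀ x ∈ Y₀, g * x * g⁻¹ ∈ Y₀ := fun g hg x hx => by
    obtain ⟨y, hy, rfl⟩ := (hY₀ x).mp hx
    exact (hY₀ _).mpr ⟨_, S.conj_mem_Y (S.H_le_B hg) hy, hconj g y hg⟩
  obtain ⟨η, hη⟩ : ∃ η : G → Γ, ∀ y ∈ S.Y, η y ∈ Y₀ ∧ σ (η y) = y := by
    have : ∀ y : G, ∃ x, y ∈ S.Y → x ∈ Y₀ ∧ σ x = y := fun y => by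
      by_cases hy : y ∈ S.Y
      swap
      · exact ⟨1, fun h => absurd h hy⟩
      obtain ⟨b, c, rfl⟩ := hy
      have k1 : 1 - (k : F) * S.s k ≠ 0 := fun e => (S.mul_s_eq_one (sub_eq_zero.mp e).symm).elim
        (fun e => hk (Units.ext e)) fun e => hk' (Units.ext e)
      have k2 : 1 - (k : F) ^ 2 * S.s k ≠ 0 := fun e =>
        hk (Units.ext (S.sq_mul_s_eq_one (sub_eq_zero.mp e).symm))
      refine ⟨_, fun _ => ⟨(hY₀ _).mpr ⟨_, S.u_mem_Y (b / (1 - k * S.s k))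
        (c / (1 - k ^ 2 * S.s k)), rfl⟩, ?_⟩⟩
      rw [hδ, u_zero_inv, S.h_conj_u, mul_zero, u_zero_mul]
      congr 1 <;> field_simp <;> ring
    exact ⟨fun y => (this y).choose, fun y => (this y).choose_spec⟩
  have hη' : ∀ x ∈ Y₀, η (σ x) = x := fun x hx => mul_inv_eq_one.mp (hY2 _
    (mul_mem (hη _ (hY1 x hx)).1 (inv_mem hx))
    (by rw [map_mul, map_inv, (hη _ (hY1 x hx)).2, mul_inv_cancel]))
  obtain ⟨π, hπ⟩ : ∃ π : Γ → Γ, ∀ x, π x = x * (η (σ x))⁻¹ := ⟨_, fun _ => rfl⟩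
  have π0 : ∀ x, σ x ∈ S.Y → ∀ g, g * π x = π x * g := fun x hx => comm_of_map_eq_one hσ (by
    rw [hπ, map_mul, map_inv, (hη _ hx).2, mul_inv_cancel])
  have π1 : ∀ x x', σ x ∈ S.Y → σ x' ∈ S.Y → π (x * x') = π x * π x' := fun x x' hx hx' => by
    have e := hη' _ (mul_mem (hη _ hx).1 (hη _ hx').1)
    rw [map_mul, (hη _ hx).2, (hη _ hx').2] at e
    rw [hπ x, mul_assoc, π0 x' hx', hπ, hπ, map_mul, e]
    group
  have π2 : ∀ g x, (∀ x ∈ Y₀, g * x * g⁻¹ ∈ Y₀) → σ x ∈ S.Y → π (g * x * g⁻¹) = π x :=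
    fun g x hg hx => by
      have e := hη' _ (hg _ (hη _ hx).1)
      rw [map_mul, map_mul, (hη _ hx).2, ← map_mul, ← map_mul] at e
      rw [hπ, e, ← mul_inv_cancel_right (π x) g, ← π0 x hx, hπ]
      group
  have π3 : ∀ x, σ x ∈ S.Y → π x = 1 → x ∈ Y₀ := fun x hx e => by
    rw [hπ, mul_inv_eq_one] at e
    exact e ▸ (hη _ hx).1
  have hUY : ∀ a b c b' c', σ (cm hσ (S.u a b c) (S.u 0 b' c')) = S.u 0 0 (a * b') :=
    fun a b c b' c' => by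
      rw [map_cm, u_conj_u_zero, u_zero_inv, u_zero_mul]; simp
  have hψ : ∀ a b c b' c', π (cm hσ (S.u a b c) (S.u 0 b' c')) = 1 := by
    have h1 : ∀ g a b c b' c', g ∈ S.U → cm hσ (g * S.u a b c) (S.u 0 b' c') =
        cm hσ (S.u a b c) (S.u 0 b' c') * cm hσ g (S.u 0 b' c') := by
      rintro _ a b c b' c' ⟨a', b'', c'', rfl⟩
      refine cm_mul_left' hσ ?_
      rw [eq_comm, ← commutatorElement_eq_one_iff_mul_comm, ← cm_map hσ, hUY, map_lift, cm_Z_U]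
    have h2 : ∀ a b c b' c', cm hσ (S.u a b c) (S.u 0 b' c') = cm hσ (S.u a 0 0) (S.u 0 b' c') :=
      fun a b c b' c' => by rw [S.u_eq_mul a, h1 _ _ _ _ _ _ (S.u_mem_U ..), cm_Y_Y, one_mul]
    have h3 : ∀ a b c b' c', σ (cm hσ (S.u a b c) (S.u 0 b' c')) ∈ S.Y := fun a b c b' c' =>
      hUY a b c b' c' ▸ S.u_mem_Y ..
    intro a b c b' c'
    rw [h2, show S.u 0 b' c' = S.u 0 b' 0 * S.u 0 0 c' by simp [u_zero_mul], cm_mul_right' hσ (by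
      rw [cm_symm, cm_Z_U, inv_one, mul_one, one_mul]), cm_symm hσ _ (S.u 0 0 c'), cm_Z_U, inv_one,
      mul_one]
    have e := π2 (lift hσ S.t) _ (hY3 _ (by rw [map_lift]; exact S.t_mem_H)) (h3 a 0 0 b' 0)
    have e' := h1 _ a 0 0 b' 0 (S.u_mem_U a 0 0)
    rw [S.u_mul, h2, show a + a = -a by grind] at e'
    rw [conj_cm, map_lift, t_conj_u, t_conj_u, neg_zero, e', π1 _ _ (h3 ..) (h3 ..)] at e
    exact mul_eq_left.mp e
  have hY4 : ∀ g, σ g ∈ S.U → ∀ x ∈ Y₀, g * x * g⁻¹ ∈ Y₀ := fun g hg x hx => by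
    obtain ⟨a, b, c, e⟩ := hg
    obtain ⟨b', c', e'⟩ := hY1 x hx
    have h1 : ⁅g, x⁆ ∈ Y₀ := by
      rw [← cm_map hσ, e, e']
      exact π3 _ (hUY .. ▸ S.u_mem_Y ..) (hψ ..)
    simpa [commutatorElement_def] using mul_mem h1 hx
  have hcUU : ∀ g ∈ S.U, ∀ g' ∈ S.U, σ (cm hσ g g') ∈ S.Y := by
    rintro _ ⟨a, b, c, rfl⟩ _ ⟨a', b', c', rfl⟩
    rw [map_cm, u_inv, u_inv, S.u_mul, S.u_mul, S.u_mul, u_mem_Y_iff]
    ring
  have hl : ∀ g₁ ∈ S.U, ∀ g₂ ∈ S.U, ∀ g ∈ S.U,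
      π (cm hσ (g₁ * g₂) g) = π (cm hσ g₂ g) * π (cm hσ g₁ g) := fun g₁ h1 g₂ h2 g hg => by
    rw [cm_mul_left, π1 _ _ _ (hcUU _ h1 _ hg), π2 _ _ (hY4 _ (by rwa [map_lift])) (hcUU _ h2 _ hg)]
    rw [map_mul, map_mul, map_inv, map_lift]
    exact S.conj_mem_Y (S.U_le_B h1) (hcUU _ h2 _ hg)
  have hsymm : ∀ g ∈ S.U, ∀ g' ∈ S.U, π (cm hσ g g') = (π (cm hσ g' g))⁻¹ := fun g hg g' hg' => by
    rw [eq_inv_iff_mul_eq_one, ← π1 _ _ (hcUU _ hg _ hg') (hcUU _ hg' _ hg), cm_symm hσ g,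
      inv_mul_cancel, hπ, hη' 1 (one_mem _), inv_one, mul_one]
  have hr : ∀ g₁ ∈ S.U, ∀ g₂ ∈ S.U, ∀ g ∈ S.U,
      π (cm hσ g (g₁ * g₂)) = π (cm hσ g g₁) * π (cm hσ g g₂) := fun g₁ h1 g₂ h2 g hg => by
    rw [hsymm _ hg _ (mul_mem h1 h2), hl _ h1 _ h2 _ hg, mul_inv_rev, ← hsymm _ hg _ h1,
      ← hsymm _ hg _ h2]
  have hred : ∀ a b c a' b' c', π (cm hσ (S.u a b c) (S.u a' b' c')) =
      π (cm hσ (S.u a 0 0) (S.u a' 0 0)) := fun a b c a' b' c' => by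
    rw [S.u_eq_mul a', hr _ (S.u_mem_U ..) _ (S.u_mem_U ..) _ (S.u_mem_U ..), hψ, mul_one,
      S.u_eq_mul a, hl _ (S.u_mem_U ..) _ (S.u_mem_U ..) _ (S.u_mem_U ..),
      hsymm _ (S.u_mem_U 0 b c) _ (S.u_mem_U ..), hψ, inv_one, one_mul]
  have hUU : ∀ a a', π (cm hσ (S.u a 0 0) (S.u a' 0 0)) = 1 := by
    refine biadd_eq_one _ (·⁻¹) (fun x x' y => ?_) (fun y y' => ?_) (fun x y => ?_) S.exists_inv_ne
    · rw [← hl _ (S.u_mem_U ..) _ (S.u_mem_U ..) _ (S.u_mem_U ..), S.u_mul, hred (x' + x), add_comm]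
    · rw [← hr _ (S.u_mem_U ..) _ (S.u_mem_U ..) _ (S.u_mem_U ..), S.u_mul]
      exact (hred ..).symm
    · by_cases hx : x = 0
      · rw [hx, inv_zero, zero_mul, S.u_zero, cm_one_left, cm_one_right]
      rw [← π2 (lift hσ (S.h (Units.mk0 x⁻¹ (inv_ne_zero hx)))) _
        (hY3 _ (by rw [map_lift]; exact S.h_mem_H _)) (hcUU _ (S.u_mem_U ..) _ (S.u_mem_U ..)),
        conj_cm, map_lift, S.h_conj_u, S.h_conj_u, Units.val_mk0, inv_mul_cancel₀ hx, mul_zero,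
        mul_zero]
  have hUU' : ∀ x y : Γ, σ x ∈ S.U → σ y ∈ S.U → ⁅x, y⁆ ∈ Y₀ := fun x y hx hy => by
    rw [← cm_map hσ]
    refine π3 _ (hcUU _ hx _ hy) ?_
    obtain ⟨a, b, c, e⟩ := hx
    obtain ⟨a', b', c', e'⟩ := hy
    rw [e, e', hred, hUU]
  obtain ⟨U₀, hU₀⟩ := mk
    { carrier := {x | ∃ y ∈ S.U, ∃ x₀ ∈ Y₀, x = x₀ * cm hσ y (S.h k)}
      one_mem' := ⟨1, one_mem _, 1, one_mem _, by rw [cm_one_left, mul_one]⟩
      mul_mem' := by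
        rintro _ _ ⟨y', hy', x', hx', rfl⟩ ⟨y, hy, x, hx, rfl⟩
        refine ⟨y * y', mul_mem hy hy', x' * (cm hσ y' (S.h k) * x * (cm hσ y' (S.h k))⁻¹) *
          ⁅lift hσ y, cm hσ y' (S.h k)⁆⁻¹, mul_mem (mul_mem hx' (hY4 _ (hcU _ hy') _ hx))
            (inv_mem (hUU' _ _ (by rwa [map_lift]) (hcU _ hy'))), ?_⟩
        rw [cm_mul_left, commutatorElement_def]
        group }
  replace hU₀ : ∀ x, x ∈ U₀ ↔ ∃ y ∈ S.U, ∃ x₀ ∈ Y₀, x = x₀ * cm hσ y (S.h k) := hU₀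
  have hnorm : ∀ a x, σ a ∈ S.H → x ∈ U₀ → a * x * a⁻¹ ∈ U₀ := fun a x ha hx => by
    obtain ⟨y, hy, x₀, hx₀, rfl⟩ := (hU₀ x).mp hx
    exact (hU₀ _).mpr ⟨_, S.conj_mem_U (S.H_le_B ha) hy, _, hY3 a ha _ hx₀, by
      rw [← hconj a y ha]; group⟩
  have hdec : ∀ x, σ x ∈ S.B → ∃ X ∈ U₀, ∃ a, σ a ∈ S.H ∧ x = X * a := fun x hx => by
    obtain ⟨a, b, c, l, e⟩ := S.mem_B.mp hx
    obtain ⟨a', b', c', e'⟩ := S.exists_conj_h a b c hk hk'
    refine ⟨cm hσ (S.u a' b' c') (S.h k), (hU₀ _).mpr ⟨_, S.u_mem_U .., 1, one_mem _,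
      (one_mul _).symm⟩, (cm hσ (S.u a' b' c') (S.h k))⁻¹ * x, ?_, (mul_inv_cancel_left _ _).symm⟩
    rw [map_mul, map_inv, map_cm, ← e', mul_inv_cancel_right, e, inv_mul_cancel_left]
    exact S.h_mem_H l
  have hle : ⁅S.B.comap σ, S.B.comap σ⁆ ≤ U₀ := by
    rw [Subgroup.commutator_le]
    intro x hx y hy
    obtain ⟨X, hX, a, ha, rfl⟩ := hdec x hx
    obtain ⟨Y, hY, b, hb, rfl⟩ := hdec y hy
    have e : ⁅X * a, Y * b⁆ = X * (a * Y * a⁻¹) * (a * b * (b * a)⁻¹) * (b * X⁻¹ * b⁻¹) * Y⁻¹ := by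
      rw [commutatorElement_def]
      group
    rw [e, hH a b ha hb, mul_inv_cancel, mul_one]
    exact mul_mem (mul_mem (mul_mem hX (hnorm a Y ha hY)) (hnorm b _ hb (inv_mem hX))) (inv_mem hY)
  obtain ⟨_, ⟨a, b, c, rfl⟩, x₀, hx₀, rfl⟩ := (hU₀ z).mp (hle hz')
  refine hY2 _ (mul_mem hx₀ ((hY₀ _).mpr ⟨_, ?_, rfl⟩)) hz
  have h1 := inv_mem (hY1 _ hx₀)
  rw [map_mul] at hz
  rw [← eq_inv_of_mul_eq_one_right hz, hδ, u_inv, S.h_conj_u, S.u_mul, u_mem_Y_iff] at h1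
  rw [u_mem_Y_iff]
  exact (mul_eq_zero.mp (show (1 - k : F) * a = 0 by linear_combination h1)).resolve_left
    fun e => hk (Units.ext (sub_eq_zero.mp e).symm)

theorem cm_eq_of_pair {a b : G} (ha : a * a = 1) (hb : b * b = 1) (h : a * b = b * a) (h1 : a ≠ 1)
    (h2 : b ≠ 1) (h3 : a ≠ b) : cm hσ a b = cm hσ S.t S.w := by
  obtain ⟨g, rfl⟩ := S.exists_conj_t_eq ha h1
  obtain ⟨y, hy⟩ := (S.twist g).exists_conj_mem_V (v := b) h.symm hb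
  have e := (S.twist g).φ_comm_t y
  rw [mem_twist_V] at hy
  generalize (S.twist g).φ y = z at hy e
  rw [twist_t] at e
  have e1 : (z * g)⁻¹ * (g * S.t * g⁻¹) * (z * g)⁻¹⁻¹ = S.t := by
    calc _ = g⁻¹ * (z⁻¹ * (g * S.t * g⁻¹ * z)) * g := by group
      _ = _ := by rw [← e]; group
  have e2 : (z * g)⁻¹ * b * (z * g)⁻¹⁻¹ = g⁻¹ * (z⁻¹ * b * z) * g := by group
  rw [← cm_conj_of_comm hσ h (z * g)⁻¹, e1, e2]
  rcases hy with e3 | e3 | e3 | e3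
  · exact absurd (e2.trans e3) (conj_ne_one' h2 _)
  · exact absurd ((MulAut.conj (z * g)⁻¹).injective (e1.trans (e2.trans e3).symm)) h3
  · rw [e3]
  · rw [e3, cm_mul_right' hσ (cm_comm hσ S.w_t.symm _), cm_self, one_mul]

include S in
theorem cm_sylow_two (P : Sylow 2 G) {a b : G} (ha : a ∈ P) (hb : b ∈ P) : cm hσ a b = 1 := by
  have := S.finite
  by_cases h1 : a = 1
  · rw [h1, cm_one_left]
  by_cases h2 : b = 1
  · rw [h2, cm_one_right]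
  by_cases h3 : a = b
  · rw [h3, cm_self]
  have sq := fun x => S.mul_self_of_mem_sylow P (x := x)
  obtain ⟨S', rfl, h4⟩ := exists_V_eq h1 (sq a ha) (sq b hb) (S.sylow_two_comm P hb ha) S
  obtain ⟨c, hc, h5⟩ : ∃ c ∈ (P : Subgroup G), c ∉ S'.V := by
    by_contra h
    push Not at h
    have := Subgroup.card_le_of_le (H := P) (K := S'.V) h
    rw [S.card_sylow_two, S'.card_V] at this
    omega
  have h6 : b * c ∉ S'.V := fun e => h5 ((mul_mem_cancel_left h4).mp e)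
  have key : ∀ x ∈ (P : Subgroup G), x ∉ S'.V → cm hσ S'.t x = cm hσ S.t S.w := fun x hx e =>
    S.cm_eq_of_pair hσ (sq _ ha) (sq x hx) (S.sylow_two_comm P ha hx) h1
      (by rintro rfl; exact e (one_mem _)) (by rintro rfl; exact e S'.t_mem_V)
  have e := cm_mul_right' hσ (g₁ := b) (g₂ := c) (g := S'.t)
    (cm_comm hσ (S.sylow_two_comm P ha hc) _)
  rw [key _ (mul_mem hb hc) h6, key c hc h5] at e
  exact (mul_eq_right.mp e.symm)

omit hσ in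
include S in
theorem hasCyclicSchurMultiplier_one : Cfsg.HasCyclicSchurMultiplier G 1 := by
  have := S.finite
  refine hasCyclicSchurMultiplier_one_of_primes fun p hp _ Γ _ _ σ hs z hz hzp => ?_
  have hσ := IsCentralExt.of_stem hs
  have hz' : z ∈ stemKer σ := by rwa [stemKer_eq_ker_of_stem hs]
  have := Fact.mk hp
  obtain ⟨P⟩ : Nonempty (Sylow p G) := inferInstance
  have hP := hp.coprime_iff_not_dvd.mpr P.not_dvd_index
  by_cases h2 : p = 2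
  · subst h2
    refine eq_one_of_pow_coprime hzp (Subgroup.mem_bot.mp ((Subgroup.commutator_le.mpr ?_)
      (pow_index_mem_commutator_comap hσ (P : Subgroup G) hz'))) hP
    intro x hx y hy
    rw [← cm_map hσ]
    exact S.cm_sylow_two hσ P hx hy
  by_cases h3 : p = 3
  · subst h3
    refine eq_one_of_pow_coprime hzp (S.eq_one_of_mem_commutator_B hσ
      (by rw [map_pow, show σ z = 1 from hz, one_pow])
      (pow_index_mem_commutator_comap hσ S.B hz')) (hp.coprime_iff_not_dvd.mpr fun e => ?_)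
    exact S.not_three_dvd_index_U (e.trans (Subgroup.index_dvd_of_le S.U_le_B))
  have h4 : p ≠ 3 → 3 < p := fun _ => by have := hp.two_le; omega
  have := S.isCyclic_of_isPGroup (h4 h3) P.isPGroup'
  exact eq_one_of_pow_coprime hzp (pow_index_eq_one_of_isCyclic hσ (P : Subgroup G) hz') hP

end Ree

end Cfsg.Agent.H39
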